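import Cfsg.Agent.Lib.TC.D.SuzU43.Tab

namespace Cfsg.Agent.Lib.TC.D.SuzU43.P11

open Cfsg.Agent.Lib.TC.Core Cfsg.Agent.Lib.TC.Enc Cfsg.Agent.Lib.TC.Pres Cfsg.Agent.Lib.TC.Perm Cfsg.Agent.Lib.TC.Main

set_option maxRecDepth 100000

open Cfsg.Agent.Lib.TC.D.SuzU43.Tab Cfsg.Agent.Lib.TC.G.Suz in
theorem ok : pt.chkRange rels 9889 899 = true := by decide +kernel

end Cfsg.Agent.Lib.TC.D.SuzU43.P11
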